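import Cfsg.Agent.H83.ExcUntw
import Cfsg.Agent.H378.TwRows

/-!
# Families of primes with cyclic centralisers in `³D₄(q)`, `²E₆(q)` (helper83)

* `nc_desc`, `not_cc_eig` : an element of order `r` of a twisted torus commuting with `X_a`, `X_{-a}`, `w g a = a`;
* `td4_card`, `te6_card`.
-/

set_option autoImplicit false
set_option linter.unusedSectionVars false

namespace Cfsg.Agent.H83.ExcTw

open CoxeterSystem Cfsg Cfsg.Lie Cfsg.Lie.ChevalleyDatum Cfsg.Agent.H190.Exc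
open Cfsg.Agent.ChevalleyStructure Cfsg.Agent.ChevalleyStructure.Elts Cfsg.Agent.ChevalleyStructure.CoxeterGeom
  Cfsg.Agent.ChevalleyStructure.CoxeterGeomTypes Cfsg.Agent.ChevalleyStructure.NPerm
open Cfsg.Agent.Tits.Roots Cfsg.Agent.Tits.Core Cfsg.Agent.Nodes Cfsg.Agent.Nodes.Reps Cfsg.Agent.Nodes.BNOf
  Cfsg.Agent.Nodes.RGDChev Cfsg.Agent.Nodes.Bruhat Cfsg.Agent.Nodes.SubComb Cfsg.Agent.Nodes.Coroot
open Cfsg.Agent.KFacts.RgdField Cfsg.Agent.KFacts.RgdChevCoord Cfsg.Agent.BpExc.TorCent Cfsg.Agent.BpExc.TorChev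
open Cfsg.Agent.GpExc.Field Cfsg.Agent.BpExc.Tow Cfsg.Agent.BpExc.TowChev Cfsg.Agent.BpExc.Fr
  Cfsg.Agent.BpExc.LangFr Cfsg.Agent.LangThm Cfsg.Agent.BpExc Cfsg.Agent.H129.TorusChar Cfsg.Agent.H129.TorusCent
  Cfsg.Agent.H129.TorusTw Cfsg.Agent.H129.TorusMain Cfsg.Agent.H493.PGTorus Cfsg.Agent.H493.PGTwist
open Cfsg.Agent.H83.ExcNc Cfsg.Agent.H83.ExcUntw Cfsg.Agent.H493.PGCyc
open Cfsg.Agent.H378.ExcAdj (od)
open Cfsg.Agent.H378.TwAdj Cfsg.Agent.H378.TwRows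

universe u

theorem nc_desc {G0 Y : Type*} [Group G0] [Group Y] {e0 : G0 →* Y} (he0 : Function.Injective e0) {σ : MulAut Y}
    {d : ℕ} (hd : ∀ y, σ y = y → y ^ d ∈ e0.range) {x u v : Y} (hx : σ x = x) (hu : σ u = u) (hv : σ v = v)
    (hux : Commute u x) (hvx : Commute v x) (huv : ¬ Commute u v) {r p : ℕ} (hr : r.Prime) (hxr : orderOf x = r)
    (hup : u ^ p = 1) (hvp : v ^ p = 1) (hrd : ¬ r ∣ d) (hpd : d.Coprime p) : ¬ CC G0 r := by
  obtain ⟨x', hx'⟩ := hd x hx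
  obtain ⟨u', hu'⟩ := hd u hu
  obtain ⟨v', hv'⟩ := hd v hv
  have ho : orderOf x' = r := by
    rw [← orderOf_injective e0 he0 x', hx', Nat.Coprime.orderOf_pow, hxr]
    rw [hxr]
    exact (Nat.Prime.coprime_iff_not_dvd hr).2 hrd
  refine not_cc_of_nc (a := u') (b := v') ho ?_ ?_ ?_
  · apply he0
    rw [map_mul, map_mul, hx', hu']
    exact (hux.pow_pow d d).eq
  · apply he0
    rw [map_mul, map_mul, hx', hv']
    exact (hvx.pow_pow d d).eq
  · intro hc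
    apply huv
    have h1 : Commute (u ^ d) (v ^ d) := by
      show u ^ d * v ^ d = v ^ d * u ^ d
      rw [← hu', ← hv', ← map_mul, ← map_mul, hc.eq]
    obtain ⟨m, hm⟩ := exists_pow_eq_self_of_coprime (x := u) (n := d)
      (Nat.Coprime.coprime_dvd_right (orderOf_dvd_of_pow_eq_one hup) hpd)
    obtain ⟨m', hm'⟩ := exists_pow_eq_self_of_coprime (x := v) (n := d)
      (Nat.Coprime.coprime_dvd_right (orderOf_dvd_of_pow_eq_one hvp) hpd)
    have h2 := h1.pow_pow m m'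
    rwa [hm, hm'] at h2

section Main

variable {D : ChevalleyDatum} {l : ℕ} {M : CoxeterMatrix (Fin l)} (hp : IsType D l M) {k : Type u} [Field k]
  [IsAlgClosed k] {W : Type*} [Group W] [Finite W] (cs : CoxeterSystem M W) {p e : ℕ} [Fact p.Prime] [CharP k p]
  {σ : MulAut ↥(D.group k)} {g : (Fin l → ℤ) ≃+ (Fin l → ℤ)}
  {G0 : Type*} [Group G0] {e0 : G0 →* ↥(D.group k)}

/-- **A pair of opposite root elements fixed by the Frobenius.** -/
theorem exists_uv (hk : LocFin k) (he : 0 < e) (hσ : IsFrob p e σ)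
    (F : Fr cs hp.isCartan (TT D k) (XX D l k) σ g) {a : Fin l → ℤ} (ha : IsRoot cs hp.isCartan a) (hga : g a = a) :
    ∃ u v : ↥(D.group k), σ u = u ∧ σ v = v ∧ u ^ p = 1 ∧ v ^ p = 1 ∧ ¬ Commute u v ∧
      (∀ t ∈ TT D k, cX hp t a = 1 → Commute u t) ∧ ∀ t ∈ TT D k, cX hp t (-a) = 1 → Commute v t := by
  obtain ⟨c, hc, h1⟩ := HX.fr_xc hp cs hσ F ha
  rw [hga] at h1
  have hq : 1 < p ^ e := Nat.one_lt_pow he.ne' (Fact.out : p.Prime).one_lt
  obtain ⟨s, hs⟩ := IsAlgClosed.exists_pow_nat_eq c⁻¹ (n := p ^ e - 1) (by omega)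
  have hs0 : s ≠ 0 := by
    rintro rfl
    rw [zero_pow (by omega)] at hs
    exact inv_ne_zero hc hs.symm
  have hs1 : c * s ^ p ^ e = s := by
    have e1 : s ^ p ^ e = s ^ (p ^ e - 1) * s := by
      rw [← pow_succ]; congr 1; omega
    rw [e1, hs, ← mul_assoc, mul_inv_cancel₀ hc, one_mul]
  have C := coordsL hp cs hk p
  have hna : IsRoot cs hp.isCartan (-a) := ha.neg
  have hgna : g (-a) = -a := by rw [map_neg, hga]
  have hu : xc hp a s ∈ XX D l k a := ((C.coord _ ha).mem _).2 ⟨s, rfl⟩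
  have hu1 : xc hp a s ≠ 1 := (C.coord _ ha).ne_one hs0
  have hσu : σ (xc hp a s) = xc hp a s := by rw [h1, hs1]
  obtain ⟨v, hv, hS⟩ := H378.RankOne.exists_swap hp cs hk p ha hu hu1
  have hσv : σ v = v := hS.fix (τ := σ.toMonoidHom) hu hv σ.surjective
    (fun y => by have := F.map a ha y; rwa [hga] at this)
    (fun y hy => by have := (F.map (-a) hna y).2 hy; rwa [hgna] at this) hσu
  have key : ∀ {b : Fin l → ℤ} (hb : IsRoot cs hp.isCartan b) {y : ↥(D.group k)}, y ∈ XX D l k b →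
      ∀ t ∈ TT D k, cX hp t b = 1 → Commute y t := by
    intro b hb y hy t ht h2
    obtain ⟨s', rfl⟩ := ((C.coord _ hb).mem y).1 hy
    have h3 := (C.coord _ hb).act _ ht s'
    rw [← cX_root hp cs ht hb, h2, one_mul] at h3
    exact (mul_inv_eq_iff_eq_mul.1 h3).symm
  exact ⟨_, v, hσu, hσv, H378.RootTor.X_pow hp cs p ha hu, H378.RootTor.X_pow hp cs p hna hv,
    swap_not_comm hS hu hu1, key ha hu, key hna hv⟩

/-- **A row of a twisted table.** -/
theorem not_cc_eig (hk : LocFin k) (he : 0 < e) (hσ : IsFrob p e σ)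
    (F : Fr cs hp.isCartan (TT D k) (XX D l k) σ g) {d' : ℕ} {B' : Fin l → Fin l → ℤ} (hB : InvC D l d' B')
    (hd' : d' ≠ 0) (he0 : Function.Injective e0) {d : ℕ} (hd : ∀ y, σ y = y → y ^ d ∈ e0.range)
    {w : W} {Th : Fin l → Fin l → ℤ} (hw : ∀ j, rep cs hp.isCartan w (g (sr j)) = Th j)
    {f : ℕ} {c : Fin (f + 1) → ℤ} {V : Fin (f + 1) → Fin l → ℤ} {U : Fin l → ℤ}
    (h : EigOK (fun i j => Th j i) c V U) (hc : c 0 = 1 ∨ c 0 = -1) {a : Fin l → ℤ} (ha : IsRoot cs hp.isCartan a)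
    (hwa : rep cs hp.isCartan w (g a) = a) (hVa : ∀ i, ∑ m, a m * V i m = 0)
    {r : ℕ} (hr : r.Prime) (hrd : ¬ r ∣ d) (hpd : ¬ p ∣ d)
    (h1 : (r : ℤ) ∣ pv c ((p ^ e : ℕ) : ℤ)) : ¬ CC G0 r := by
  obtain ⟨n, z, hz, hσ', F'⟩ := exists_z hp cs hk he hσ F w
  obtain ⟨t, ht, h3, h4, h5⟩ := exists_t hp cs hσ' F' hB hd' hr (ne_char hc Fact.out he h1) (hL_of_eig hp cs hw h h1)
    (x₀ := U) (by rw [lam_unit h]; exact not_dvd_one hr)
  obtain ⟨u, v, hu, hv, hup, hvp, huv, hut, hvt⟩ := exists_uv hp cs hk he hσ' F' ha hwa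
  have hut' : Commute u t := hut t ht (h5 a (by rw [lam_zero hVa]; exact dvd_zero _))
  have hvt' : Commute v t := hvt t ht (h5 (-a) (by rw [map_neg, lam_zero hVa, neg_zero]; exact dvd_zero _))
  have ho : ∀ y : ↥(D.group k), orderOf (z * y * z⁻¹) = orderOf y := fun y =>
    orderOf_injective (MulAut.conj z).toMonoidHom (MulAut.conj z).injective y
  have hcj : ∀ {y y' : ↥(D.group k)}, Commute y y' → Commute (z * y * z⁻¹) (z * y' * z⁻¹) := by
    intro y y' hyy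
    calc z * y * z⁻¹ * (z * y' * z⁻¹) = z * (y * y') * z⁻¹ := by group
      _ = z * (y' * y) * z⁻¹ := by rw [hyy.eq]
      _ = _ := by group
  have hcp : ∀ (y : ↥(D.group k)) (j : ℕ), y ^ j = 1 → (z * y * z⁻¹) ^ j = 1 := fun y j hy => by
    rw [conj_pow, hy, mul_one, mul_inv_cancel]
  refine nc_desc he0 hd (fix_conj hz h3) (fix_conj hz hu) (fix_conj hz hv) (hcj hut') (hcj hvt') ?_ hr
    ((ho t).trans h4) (hcp u p hup) (hcp v p hvp) hrd
    ((Nat.Prime.coprime_iff_not_dvd (Fact.out : p.Prime)).2 hpd).symm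
  intro hcc
  apply huv
  have e1 : ∀ y : ↥(D.group k), z⁻¹ * (z * y * z⁻¹) * z = y := fun y => by group
  calc u * v = z⁻¹ * ((z * u * z⁻¹) * (z * v * z⁻¹)) * z := by group
    _ = z⁻¹ * ((z * v * z⁻¹) * (z * u * z⁻¹)) * z := by rw [hcc.eq]
    _ = v * u := by group

end Main

/-! ### `³D₄(q)` -/

section D

open Cfsg.Agent.H129 Cfsg.Agent.H129.WData Cfsg.Agent.H129.TriD4 Cfsg.Agent.H493.PGD4T

variable {K : Type u} [Field K] [Fintype K] {q : ℕ} (hq : IsPrimePow q) (hK : Fintype.card K = q ^ 3)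

section

variable {L : List (Fin 4 × Mat 4)} (hL : ChainOK H493.PGD4T.Am L) {Th : Mat 4} (hTh : ∀ j, hd L (H493.PGD4T.pi j) = Th j)
  {f : ℕ} {c : Fin (f + 1) → ℤ} {V : Fin (f + 1) → Fin 4 → ℤ} {U : Fin 4 → ℤ}
  (h : EigOK (fun i j => Th j i) c V U) (hc : c 0 = 1 ∨ c 0 = -1)

include hq hK hL hTh h hc

theorem not_ccD {r₀ : ℕ} (hr₀ : r₀ < 24)
    (hfix : ∀ m, ∑ j, vec chevD4 4 r₀ j * Th j m = vec chevD4 4 r₀ m)
    (hV : ∀ i, ∑ m, vec chevD4 4 r₀ m * V i m = 0) {r : ℕ} (hr : r.Prime)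
    (h1 : (r : ℤ) ∣ pv c q) : ¬ CC ↥(twistedD4 K q) r := by
  have := H493.PGD4T.finW
  obtain ⟨p, e, hpF, hpk, he, hqe, hk⟩ := H493.PGD4T.setup hq hK
  have hqe' : (q : ℤ) = ((p ^ e : ℕ) : ℤ) := by rw [hqe]
  rw [hqe'] at h1
  have hroot := (isRoot_iff RGDTwD4.hp coxeterD4.toCoxeterSystem (vec chevD4 4 r₀)).2 ⟨r₀, hr₀, rfl⟩
  have hlin := H493.PGD4T.lin coxeterD4.toCoxeterSystem hL hTh
  refine not_cc_eig RGDTwD4.hp coxeterD4.toCoxeterSystem hk he isFrob_tau (fr_tau _) TorusChar.invC_D4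
    (by norm_num) (embT_injective (algebraMap K (AlgebraicClosure K)) hq hK) (d := 1)
    (fun y hy => by rw [pow_one]; exact tau_range _ hqe hq hK hy) hlin h hc hroot ?_ hV hr
    (fun h => hr.one_lt.ne' (Nat.dvd_one.1 h)) (fun h => hpF.out.one_lt.ne' (Nat.dvd_one.1 h)) h1
  funext m
  rw [← hfix m]
  have h3 : vec chevD4 4 r₀ = ∑ j, vec chevD4 4 r₀ j • sr j := TorusChar.IsMC.eq_sum_sr _
  conv_lhs => rw [h3]
  rw [map_sum, map_sum, Finset.sum_apply]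
  refine Finset.sum_congr rfl fun j _ => ?_
  rw [map_zsmul, map_zsmul, hlin, Pi.smul_apply, smul_eq_mul]

end

include hq hK

theorem td4_dvd {r : ℕ} (hr : r.Prime) (h11 : 11 ≤ r) (hd : r ∣ Nat.card ↥(twistedD4 K q))
    (hcc : CC ↥(twistedD4 K q) r) : (r : ℤ) ∣ pv c12 q := by
  have h0 := hd
  rw [Cfsg.Agent.S1067.result hq hK] at h0
  rcases H493.PGD4T.cover hq.two_le hr h0 with (h | h | h | h | h) | h
  · exfalso
    have hF := Nat.card_eq_fintype_card (α := K)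
    have h1 : r ∣ Nat.card K := by
      rw [hF, hK]
      exact h.trans (dvd_pow_self q (by norm_num))
    refine not_cc_dvd (RingHom.id K) hr h11 h1 ?_ _ ?_ hcc
    · show Fintype.card (Fin chevD4.rank ⊕ Fin chevD4.nroots) ≤ 121
      rw [Fintype.card_sum, Fintype.card_fin, Fintype.card_fin]
      decide +kernel
    · rw [S1067.result hq hK, hF, hK, ← pow_mul]
      exact Dvd.dvd.mul_left (Dvd.dvd.mul_right (Dvd.dvd.mul_right (Dvd.dvd.mul_right
        (pow_dvd_pow _ (by norm_num)) _) _) _) _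
  · exact absurd hcc (not_ccD hq hK chainA_ok hThA eigA_1 (by decide) (by decide) fixA vanA_1 hr h)
  · exact absurd hcc (not_ccD hq hK chainB_ok hThB eigB_2 (by decide) (by decide) fixB vanB_2 hr h)
  · exact absurd hcc (not_ccD hq hK chainA_ok hThA eigA_3 (by decide) (by decide) fixA vanA_3 hr h)
  · exact absurd hcc (not_ccD hq hK chainB_ok hThB eigB_6 (by decide) (by decide) fixB vanB_6 hr h)
  · exact h

/-- the classes -/
theorem td4_card_one {ρ : Finset ℕ} (h : Ind ↥(twistedD4 K q) ρ) : ρ.card ≤ 1 := by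
  refine (card_of (fun _ => 0) {0} (fun r hr => by decide) (fun r hr s hs _ hne => ?_) h).trans (by decide)
  have hrp := h.prime r hr
  have hsp := h.prime s hs
  obtain ⟨x, y, hx, hy, hc⟩ := pairD_gen hq hK chainC_ok hThC eigC_12 (by decide) eigC_12 (by decide) hrp hsp
    (td4_dvd hq hK hrp (h.ge r hr) (h.dvd r hr) (h.cc r hr)) (td4_dvd hq hK hsp (h.ge s hs) (h.dvd s hs) (h.cc s hs))
  exact exists_mul hrp hsp hne hc (by rw [hx]) (by rw [hy])

theorem td4_card {ρ : Finset ℕ} (h : Ind ↥(twistedD4 K q) ρ) : ρ.card ≤ 2 :=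
  (td4_card_one hq hK h).trans (by norm_num)

end D

/-! ### `²E₆(q)` -/

section E

open Cfsg.Agent.H129 Cfsg.Agent.H129.WData Cfsg.Agent.H493.TwE6Alg Cfsg.Agent.H493.PGE6T

variable {K : Type u} [Field K] [Fintype K] {q : ℕ} (hq : IsPrimePow q) (hK : Fintype.card K = q ^ 2)

section

variable {L : List (Fin 6 × Mat 6)} (hL : ChainOK H493.PGE6T.Am L) {Th : Mat 6}
  (hTh : ∀ j, hd L (H493.TwE6Alg.pi j) = Th j)
  {f : ℕ} {c : Fin (f + 1) → ℤ} {V : Fin (f + 1) → Fin 6 → ℤ} {U : Fin 6 → ℤ}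
  (h : EigOK (fun i j => Th j i) c V U) (hc : c 0 = 1 ∨ c 0 = -1)

include hq hK hL hTh h hc

theorem not_ccE {r₀ : ℕ} (hr₀ : r₀ < 72)
    (hfix : ∀ m, ∑ j, vec chevE6 6 r₀ j * Th j m = vec chevE6 6 r₀ m)
    (hV : ∀ i, ∑ m, vec chevE6 6 r₀ m * V i m = 0) {r : ℕ} (hr : r.Prime)
    (hr3 : ¬ r ∣ Nat.gcd 3 (q + 1)) (h1 : (r : ℤ) ∣ pv c q) : ¬ CC ↥(twistedE6 K q) r := by
  have := H493.PGE6.finW
  obtain ⟨p, e, hpF, hpk, he, hqe, hk⟩ := H493.PGE6T.setup hq hK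
  have hqe' : (q : ℤ) = ((p ^ e : ℕ) : ℤ) := by rw [hqe]
  rw [hqe'] at h1
  have hroot := (isRoot_iff RGDTwE6.hp CoxeterMatrix.E₆.toCoxeterSystem (vec chevE6 6 r₀)).2 ⟨r₀, hr₀, rfl⟩
  have hlin := H493.PGE6T.lin CoxeterMatrix.E₆.toCoxeterSystem hL hTh
  have hs3 : ¬ p ∣ Nat.gcd 3 (q + 1) := by
    intro h3
    have h4 : p ∣ q + 1 := h3.trans (Nat.gcd_dvd_right _ _)
    have h5 : p ∣ q := by rw [hqe]; exact dvd_pow_self p he.ne'
    exact hpF.out.one_lt.ne' (Nat.dvd_one.1 ((Nat.dvd_add_right h5).1 h4))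
  refine not_cc_eig RGDTwE6.hp CoxeterMatrix.E₆.toCoxeterSystem hk he isFrob_tau (fr_tau _)
    TorusChar.invC_E6 (by norm_num) (embT_injective (algebraMap K (AlgebraicClosure K)) q) (d := Nat.gcd 3 (q + 1))
    (fun y hy => tau_pow _ hqe hq hK hy) hlin h hc hroot ?_ hV hr hr3 hs3 h1
  funext m
  rw [← hfix m]
  have h3 : vec chevE6 6 r₀ = ∑ j, vec chevE6 6 r₀ j • sr j := TorusChar.IsMC.eq_sum_sr _
  conv_lhs => rw [h3]
  rw [map_sum, map_sum, Finset.sum_apply]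
  refine Finset.sum_congr rfl fun j _ => ?_
  rw [map_zsmul, map_zsmul, hlin, Pi.smul_apply, smul_eq_mul]

end

include hq hK

/-- `0`, `1`, `2` for the divisors of `Φ₈`, `Φ₁₂`, `Φ₁₈` -/
theorem te6_dvd {r : ℕ} (hr : r.Prime) (h11 : 11 ≤ r) (hd : r ∣ Nat.card ↥(twistedE6 K q))
    (hcc : CC ↥(twistedE6 K q) r) : (r : ℤ) ∣ pv c8 q ∨ (r : ℤ) ∣ pv c12 q ∨ (r : ℤ) ∣ pv c18 q := by
  have h3 : r ≠ 3 := by omega
  have h3c := natCard_ne_of hq hK hr h3
  have h1 : r ∣ q ^ 36 * (q ^ 2 - 1) * (q ^ 5 + 1) * (q ^ 6 - 1) * (q ^ 8 - 1) * (q ^ 9 + 1) * (q ^ 12 - 1) := by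
    rw [← Cfsg.Agent.S1066.result hq hK]
    exact hd.mul_left _
  rcases H493.PGE6T.cover hq.two_le hr h1 with (h | h | h | h | h | h | h) | h | h | h
  · exfalso
    have hF := Nat.card_eq_fintype_card (α := K)
    have h1 : r ∣ Nat.card K := by
      rw [hF, hK]
      exact h.trans (dvd_pow_self q (by norm_num))
    refine not_cc_dvd (RingHom.id K) hr h11 h1 ?_ _ ?_ hcc
    · show Fintype.card (Fin chevE6.rank ⊕ Fin chevE6.nroots) ≤ 121
      rw [Fintype.card_sum, Fintype.card_fin, Fintype.card_fin]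
      decide +kernel
    · have h2 := S1066.result hq hK
      have h3 : Nat.card K ^ 3 ∣ Nat.gcd 3 (q + 1) * Nat.card ↥(twistedE6 K q) := by
        rw [h2, hF, hK, ← pow_mul]
        exact Dvd.dvd.mul_right (Dvd.dvd.mul_right (Dvd.dvd.mul_right (Dvd.dvd.mul_right (Dvd.dvd.mul_right
          (Dvd.dvd.mul_right (pow_dvd_pow _ (by norm_num)) _) _) _) _) _) _
      exact h3.trans (Nat.mul_dvd_mul_right (Nat.gcd_dvd_left _ _) _)
  · exact absurd hcc (not_ccE hq hK chainA_ok hThA eigA_1 (by decide) (by decide) fixA vanA_1 hr h3c h)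
  · exact absurd hcc (not_ccE hq hK chainA_ok hThA eigA_2 (by decide) (by decide) fixA vanA_2 hr h3c h)
  · exact absurd hcc (not_ccE hq hK chainB_ok hThB eigB_3 (by decide) (by decide) fixB vanB_3 hr h3c h)
  · exact absurd hcc (not_ccE hq hK chainC_ok hThC eigC_4 (by decide) (by decide) fixC vanC_4 hr h3c h)
  · exact absurd hcc (not_ccE hq hK chainB_ok hThB eigB_6 (by decide) (by decide) fixB vanB_6 hr h3c h)
  · exact absurd hcc (not_ccE hq hK chainD_ok hThD eigD_10 (by decide) (by decide) fixD vanD_10 hr h3c h)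
  · exact Or.inl h
  · exact Or.inr (Or.inl h)
  · exact Or.inr (Or.inr h)

theorem te6_card {ρ : Finset ℕ} (h : Ind ↥(twistedE6 K q) ρ) : ρ.card ≤ 3 := by
  classical
  let f : ℕ → ℕ := fun r => if (r : ℤ) ∣ pv c8 q then 0 else if (r : ℤ) ∣ pv c12 q then 1 else 2
  have key : ∀ r ∈ ρ, (f r = 0 ∧ (r : ℤ) ∣ pv c8 q) ∨ (f r = 1 ∧ (r : ℤ) ∣ pv c12 q) ∨
      (f r = 2 ∧ (r : ℤ) ∣ pv c18 q) := by
    intro r hr
    have h1 := te6_dvd hq hK (h.prime r hr) (h.ge r hr) (h.dvd r hr) (h.cc r hr)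
    by_cases h8 : (r : ℤ) ∣ pv c8 q
    · exact Or.inl ⟨if_pos h8, h8⟩
    by_cases h12 : (r : ℤ) ∣ pv c12 q
    · exact Or.inr (Or.inl ⟨by show (if _ then _ else _) = _; rw [if_neg h8, if_pos h12], h12⟩)
    · refine Or.inr (Or.inr ⟨by show (if _ then _ else _) = _; rw [if_neg h8, if_neg h12], ?_⟩)
      tauto
  refine (card_of f {0, 1, 2} (fun r hr => ?_) (fun r hr s hs hrs hne => ?_) h).trans (by decide)
  · rcases key r hr with h1 | h1 | h1 <;> rw [h1.1] <;> decide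
  · have hrp := h.prime r hr
    have hsp := h.prime s hs
    have hr3 : r ≠ 3 := by have := h.ge r hr; omega
    have hs3 : s ≠ 3 := by have := h.ge s hs; omega
    have hrc := natCard_ne_of hq hK hrp hr3
    have hsc := natCard_ne_of hq hK hsp hs3
    have hp : Pr ↥(twistedE6 K q) r s := by
      rcases key r hr with h1 | h1 | h1 <;> rcases key s hs with h2 | h2 | h2
      · exact pairE_gen hq hK chainE_ok hThE eigE_8 (by decide) eigE_8 (by decide) hrp hsp hrc hsc h1.2 h2.2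
      · rw [h1.1, h2.1] at hrs; exact absurd hrs (by decide)
      · rw [h1.1, h2.1] at hrs; exact absurd hrs (by decide)
      · rw [h1.1, h2.1] at hrs; exact absurd hrs (by decide)
      · exact pairE_gen hq hK chainF_ok hThF eigF_12 (by decide) eigF_12 (by decide) hrp hsp hrc hsc h1.2 h2.2
      · rw [h1.1, h2.1] at hrs; exact absurd hrs (by decide)
      · rw [h1.1, h2.1] at hrs; exact absurd hrs (by decide)
      · rw [h1.1, h2.1] at hrs; exact absurd hrs (by decide)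
      · exact pairE_gen hq hK chainG_ok hThG eigG_18 (by decide) eigG_18 (by decide) hrp hsp hrc hsc h1.2 h2.2
    obtain ⟨x, y, hx, hy, hc⟩ := hp
    exact exists_mul hrp hsp hne hc (by rw [hx]) (by rw [hy])

end E

end Cfsg.Agent.H83.ExcTw
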