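import Cfsg.Agent.H83.ExcNc

/-!
# Families of primes with cyclic centralisers in `G₂(q)`, `F₄(q)`, `E₆(q)` (helper83)

* `g2_card`, `f4_card`, `e6_card`.
-/

set_option autoImplicit false
set_option linter.unusedSectionVars false

namespace Cfsg.Agent.H83.ExcUntw

open CoxeterSystem Subgroup Cfsg Cfsg.Lie Cfsg.Lie.ChevalleyDatum Cfsg.Agent.H190.Exc
open Cfsg.Agent.ChevalleyStructure Cfsg.Agent.ChevalleyStructure.Elts Cfsg.Agent.ChevalleyStructure.CoxeterGeom
  Cfsg.Agent.ChevalleyStructure.CoxeterGeomTypes Cfsg.Agent.ChevalleyStructure.NPerm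
open Cfsg.Agent.Tits.Roots Cfsg.Agent.Tits.Core Cfsg.Agent.Nodes.Reps Cfsg.Agent.Nodes.BNOf
  Cfsg.Agent.Nodes.RGDChev Cfsg.Agent.Nodes.Bruhat
open Cfsg.Agent.KFacts.RgdField Cfsg.Agent.KFacts.RgdChevCoord Cfsg.Agent.BpExc.TorCent Cfsg.Agent.BpExc.TorChev
open Cfsg.Agent.BpExc.Tow Cfsg.Agent.BpExc.TowChev Cfsg.Agent.BpExc.FamExt Cfsg.Agent.BpExc.FamUntw
  Cfsg.Agent.BpExc.FamInst Cfsg.Agent.BpExc.LangFr Cfsg.Agent.BpExc.FamField Cfsg.Agent.BpExc.RowsUntw
open Cfsg.Agent.H378.TorDual Cfsg.Agent.H378.TorChar Cfsg.Agent.H378.TorFin Cfsg.Agent.H378.RankOne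
  Cfsg.Agent.H378.RootTor Cfsg.Agent.H378.SmallTor Cfsg.Agent.H378.ExcAdj Cfsg.Agent.H378.CycTab Cfsg.Agent.H378
open Cfsg.Agent.H493.PGTorus Cfsg.Agent.H129.WData
open Cfsg.Agent.H83.ExcNc

universe u v

section Split

variable {D : ChevalleyDatum} {l : ℕ} {M : CoxeterMatrix (Fin l)} (hp : IsType D l M)
  {F : Type u} [Field F] {W : Type*} [Group W] (cs : CoxeterSystem M W) [Finite F]

include hp cs in
/-- two elements commuting with `h_j(a)` which do not commute -/
theorem exists_nc_even {j : Fin l} {r s : ℕ} (h : Orth D l j r s) (a : F) (ha : a ≠ 0) :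
    ∃ u v : ↥(D.group F), Commute u (hc hp j a) ∧ Commute v (hc hp j a) ∧ ¬ Commute u v := by
  obtain ⟨p, _, _, -⟩ := exists_charP F
  have hk := locFin_of_finite F
  have C := coordsL hp cs hk p
  have hr : IsRoot cs hp.isCartan (vec D l r) := isRoot_vec hp cs h.hr
  have hu : xc hp (vec D l r) (1 : F) ∈ XX D l F (vec D l r) := (mem_XX hp h.hr).2 ⟨1, rfl⟩
  have hu1 : xc hp (vec D l r) (1 : F) ≠ 1 := (C.coord _ hr).ne_one one_ne_zero
  obtain ⟨v, hv, hS⟩ := exists_swap hp cs hk p hr hu hu1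
  have hT := hc_mem hp j ha
  have h1 : hc hp j a * xc hp (vec D l r) 1 = xc hp (vec D l r) 1 * hc hp j a := by
    have h2 := (C.coord _ hr).act _ hT 1
    rw [ch_hc hp j ha h.hr, h.zero, zpow_zero, one_mul] at h2
    exact mul_inv_eq_iff_eq_mul.1 h2
  have h2 : hc hp j a * v = v * hc hp j a := by
    obtain ⟨s', rfl⟩ := ((C.coord _ hr.neg).mem v).1 hv
    have h3 := (C.coord _ hr.neg).act _ hT s'
    rw [ch_neg hp h.hr j ha h.zero, one_mul] at h3
    exact mul_inv_eq_iff_eq_mul.1 h3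
  exact ⟨_, v, h1.symm, h2.symm, swap_not_comm hS hu hu1⟩

include hp cs in
/-- **Primes dividing `q - 1`.** -/
theorem not_cc_split {j : Fin l} {r s : ℕ} (h : Orth D l j r s) {ℓ : ℕ} (hℓ : ℓ.Prime) (hℓ2 : ℓ ≠ 2)
    (hℓq : ℓ ∣ Nat.card F - 1) : ¬ CC ↥(D.group F) ℓ := by
  have : Fact ℓ.Prime := ⟨hℓ⟩
  obtain ⟨ζ, hζ⟩ := exists_prime_orderOf_dvd_card' (G := Fˣ) ℓ (by rw [Nat.card_units]; exact hℓq)
  have ha : (ζ : F) ≠ 0 := ζ.ne_zero
  have hm : (ζ : F) ^ ℓ = 1 := by
    rw [← Units.val_pow_eq_pow_val, ← hζ, pow_orderOf_eq_one, Units.val_one]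
  obtain ⟨u, v, hu, hv, huv⟩ := exists_nc_even hp cs h (ζ : F) ha
  refine not_cc_of_nc (orderOf_eq_prime (hc_pow_eq_one hp j ha hm) ?_) hu hv huv
  refine hc_ne_one hp j ha (simple_lt hp.inList (lt_rank hp j)) ?_
  have h2 : D.cartan j (D.simple j) = 2 := by
    have h3 := pairing_vec hp j (simple_lt hp.inList (lt_rank hp j))
    rw [vec_simple hp j] at h3
    rw [← h3]
    unfold CoxeterGeom.pairing
    rw [Finset.sum_eq_single j]
    · rw [sr_self, mul_one]
      exact hp.isCartan.diag j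
    · intro i _ hi
      rw [sr_ne hi, mul_zero]
    · intro hj
      exact absurd (Finset.mem_univ j) hj
  rw [h2]
  intro h3
  have h4 : ζ ^ 2 = 1 := Units.ext (by
    rw [Units.val_pow_eq_pow_val, Units.val_one]
    exact_mod_cast h3)
  have h5 := orderOf_dvd_of_pow_eq_one h4
  rw [hζ] at h5
  exact hℓ2 ((Nat.prime_dvd_prime_iff_eq hℓ Nat.prime_two).1 h5)

end Split

/-- the characteristic, `r ≥ 11` -/
theorem not_cc_dvd {n : Type*} [Fintype n] [DecidableEq n] {K F : Type*} [Field K] [Field F] [Finite F] (e : F →+* K)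
    {r : ℕ} (hr : r.Prime) (h11 : 11 ≤ r) (hd : r ∣ Nat.card F) (hn : Fintype.card n ≤ 121) (H : Subgroup (GL n K))
    [Finite H] (h3 : Nat.card F ^ 3 ∣ 3 * Nat.card H) : ¬ CC H r := by
  obtain ⟨p, _, _, m, hm0, hm⟩ := exists_charP F
  have hrp : r = p := by
    rw [hm] at hd
    exact (Nat.prime_dvd_prime_iff_eq hr Fact.out).1 (hr.dvd_of_dvd_pow hd)
  subst hrp
  have : CharP K r := charP_of_injective_ringHom e.injective r
  refine not_cc_char ?_ H ?_
  · calc Fintype.card n ≤ 11 ^ 2 := hn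
      _ ≤ r ^ 2 := Nat.pow_le_pow_left h11 2
  · have h1 : r ^ 3 ∣ 3 * Nat.card H := (pow_dvd_pow_of_dvd hd 3).trans h3
    have h2 : Nat.Coprime (r ^ 3) 3 := by
      apply Nat.Coprime.pow_left
      rw [Nat.coprime_primes hr Nat.prime_three]
      omega
    exact h2.dvd_of_dvd_mul_left h1

/-- the count -/
theorem card_of {G : Type*} [Group G] {ρ : Finset ℕ} (f : ℕ → ℕ) (T : Finset ℕ) (hT : ∀ r ∈ ρ, f r ∈ T)
    (hi : ∀ r ∈ ρ, ∀ s ∈ ρ, f r = f s → r ≠ s → ∃ z : G, orderOf z = r * s) (h : Ind G ρ) : ρ.card ≤ T.card := by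
  refine Finset.card_le_card_of_injOn f hT ?_
  intro r hr s hs hrs
  by_contra hne
  exact h.not_adj hr hs hne (hi r hr s hs hrs hne)

/-- the finite group -/
theorem finite_group (D : ChevalleyDatum) (F : Type u) [Field F] [Finite F] : Finite ↥(D.group F) := inferInstance

section G2

variable {F : Type u} [Field F] [Fintype F] {ρ : Finset ℕ}

theorem g2_card (h : Ind ↥(chevG2.group F) ρ) : ρ.card ≤ 2 := by
  have hF := Nat.card_eq_fintype_card (α := F)
  let cs : CoxeterSystem CoxeterMatrix.G₂ CoxeterMatrix.G₂.Group := CoxeterMatrix.G₂.toCoxeterSystem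
  have := finite_W g2T cs
  have hq : 1 ≤ Nat.card F := Nat.card_pos
  have hn1 : ∀ {r m : ℕ}, m ≠ 1 → od (Nat.card F) r = m → ¬ r ∣ Nat.card F - 1 := by
    intro r m hm h3 h4
    have h5 : od (Nat.card F) r ∣ 1 := od_dvd hq (by rw [pow_one]; exact h4)
    rw [h3] at h5
    exact hm (Nat.dvd_one.1 h5)
  have key : ∀ r ∈ ρ, od (Nat.card F) r = 3 ∨ od (Nat.card F) r = 6 := by
    intro r hr
    have hrp := h.prime r hr
    have h11 := h.ge r hr
    have hcc := h.cc r hr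
    rcases od_G2 hrp (h.dvd r hr) with h1 | h1 | h1 | h1 | h1
    · exfalso
      refine not_cc_dvd (RingHom.id F) hrp h11 h1 ?_ _ ?_ hcc
      · show Fintype.card (Fin chevG2.rank ⊕ Fin chevG2.nroots) ≤ 121
        rw [Fintype.card_sum, Fintype.card_fin, Fintype.card_fin]
        decide +kernel
      · rw [S1059.result (F := F) hF.symm, hF]
        exact Dvd.dvd.mul_left (Dvd.dvd.mul_right (Dvd.dvd.mul_right (pow_dvd_pow _ (by norm_num)) _) _) _
    · exact absurd hcc (not_cc_split g2T cs AdjG2.orth hrp (by omega) (dvd_of_od_one hq h1))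
    · exact absurd hcc (not_cc_row g2T cs inv_G2 one_ne_zero AdjG2.hA AdjG2.lt_nroots AdjG2.row2 hrp
        (hn1 (by decide) h1) (dvd2 hrp h1))
    · exact Or.inl h1
    · exact Or.inr h1
  refine (card_of (od (Nat.card F)) {3, 6} (fun r hr => ?_) (fun r hr s hs hrs hne => ?_) h).trans (by decide)
  · rcases key r hr with h1 | h1 <;> rw [h1] <;> decide
  · have hrp := h.prime r hr
    have hsp := h.prime s hs
    have hr11 := h.ge r hr
    have hs11 := h.ge s hs
    rcases key r hr with h1 | h1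
    · exact adj_tor g2T cs inv_G2 one_ne_zero AdjG2.hA AdjG2.chain3 AdjG2.tor3_3 hrp hsp (by omega) (by omega) hne
        (dvd3 hrp h1) (dvd3 hsp (hrs.symm.trans h1))
    · exact adj_tor g2T cs inv_G2 one_ne_zero AdjG2.hA AdjG2.chain6 AdjG2.tor6_6 hrp hsp (by omega) (by omega) hne
        (dvd6 hrp h1) (dvd6 hsp (hrs.symm.trans h1))

end G2

section F4

variable {F : Type u} [Field F] [Fintype F] {ρ : Finset ℕ}

theorem f4_card (h : Ind ↥(chevF4.group F) ρ) : ρ.card ≤ 2 := by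
  have hF := Nat.card_eq_fintype_card (α := F)
  let cs : CoxeterSystem CoxeterMatrix.F₄ CoxeterMatrix.F₄.Group := CoxeterMatrix.F₄.toCoxeterSystem
  have := finite_W f4T cs
  have hq : 1 ≤ Nat.card F := Nat.card_pos
  have hn1 : ∀ {r m : ℕ}, m ≠ 1 → od (Nat.card F) r = m → ¬ r ∣ Nat.card F - 1 := by
    intro r m hm h3 h4
    have h5 : od (Nat.card F) r ∣ 1 := od_dvd hq (by rw [pow_one]; exact h4)
    rw [h3] at h5
    exact hm (Nat.dvd_one.1 h5)
  have key : ∀ r ∈ ρ, od (Nat.card F) r = 8 ∨ od (Nat.card F) r = 12 := by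
    intro r hr
    have hrp := h.prime r hr
    have h11 := h.ge r hr
    have hcc := h.cc r hr
    rcases od_F4 hrp (h.dvd r hr) with h1 | h1 | h1 | h1 | h1 | h1 | h1 | h1
    · exfalso
      refine not_cc_dvd (RingHom.id F) hrp h11 h1 ?_ _ ?_ hcc
      · show Fintype.card (Fin chevF4.rank ⊕ Fin chevF4.nroots) ≤ 121
        rw [Fintype.card_sum, Fintype.card_fin, Fintype.card_fin]
        decide +kernel
      · rw [S1062.result (F := F) hF.symm, hF]
        exact Dvd.dvd.mul_left (Dvd.dvd.mul_right (Dvd.dvd.mul_right (Dvd.dvd.mul_right (Dvd.dvd.mul_right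
          (pow_dvd_pow _ (by norm_num)) _) _) _) _) _
    · exact absurd hcc (not_cc_split f4T cs AdjF4.orth hrp (by omega) (dvd_of_od_one hq h1))
    · exact absurd hcc (not_cc_row f4T cs inv_F4 one_ne_zero AdjF4.hA AdjF4.lt_nroots AdjF4.row2 hrp
        (hn1 (by decide) h1) (dvd2 hrp h1))
    · exact absurd hcc (not_cc_row f4T cs inv_F4 one_ne_zero AdjF4.hA AdjF4.lt_nroots AdjF4.row3 hrp
        (hn1 (by decide) h1) (dvd3 hrp h1))
    · exact absurd hcc (not_cc_row f4T cs inv_F4 one_ne_zero AdjF4.hA AdjF4.lt_nroots AdjF4.row4 hrp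
        (hn1 (by decide) h1) (dvd4 hrp h1))
    · exact absurd hcc (not_cc_row f4T cs inv_F4 one_ne_zero AdjF4.hA AdjF4.lt_nroots AdjF4.row6 hrp
        (hn1 (by decide) h1) (dvd6 hrp h1))
    · exact Or.inl h1
    · exact Or.inr h1
  refine (card_of (od (Nat.card F)) {8, 12} (fun r hr => ?_) (fun r hr s hs hrs hne => ?_) h).trans (by decide)
  · rcases key r hr with h1 | h1 <;> rw [h1] <;> decide
  · have hrp := h.prime r hr
    have hsp := h.prime s hs
    have hr11 := h.ge r hr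
    have hs11 := h.ge s hs
    rcases key r hr with h1 | h1
    · exact adj_tor f4T cs inv_F4 one_ne_zero AdjF4.hA AdjF4.chain8 AdjF4.tor8_8 hrp hsp (by omega) (by omega) hne
        (dvd8 hrp h1) (dvd8 hsp (hrs.symm.trans h1))
    · exact adj_tor f4T cs inv_F4 one_ne_zero AdjF4.hA AdjF4.chain12 AdjF4.tor12_12 hrp hsp (by omega) (by omega) hne
        (dvd12 hrp h1) (dvd12 hsp (hrs.symm.trans h1))

end F4

section E6

variable {F : Type u} [Field F] [Fintype F] {ρ : Finset ℕ}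

theorem e6_card (h : Ind ↥(chevE6.group F) ρ) : ρ.card ≤ 3 := by
  have hF := Nat.card_eq_fintype_card (α := F)
  let cs : CoxeterSystem CoxeterMatrix.E₆ CoxeterMatrix.E₆.Group := CoxeterMatrix.E₆.toCoxeterSystem
  have := finite_W e6T cs
  have hq : 1 ≤ Nat.card F := Nat.card_pos
  have hn1 : ∀ {r m : ℕ}, m ≠ 1 → od (Nat.card F) r = m → ¬ r ∣ Nat.card F - 1 := by
    intro r m hm h3 h4
    have h5 : od (Nat.card F) r ∣ 1 := od_dvd hq (by rw [pow_one]; exact h4)
    rw [h3] at h5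
    exact hm (Nat.dvd_one.1 h5)
  have key : ∀ r ∈ ρ, od (Nat.card F) r = 8 ∨ od (Nat.card F) r = 9 ∨ od (Nat.card F) r = 12 := by
    intro r hr
    have hrp := h.prime r hr
    have h11 := h.ge r hr
    have hcc := h.cc r hr
    rcases od_E6 hrp (h.dvd r hr) with h1 | h1 | h1 | h1 | h1 | h1 | h1 | h1 | h1 | h1
    · exfalso
      refine not_cc_dvd (RingHom.id F) hrp h11 h1 ?_ _ ?_ hcc
      · show Fintype.card (Fin chevE6.rank ⊕ Fin chevE6.nroots) ≤ 121
        rw [Fintype.card_sum, Fintype.card_fin, Fintype.card_fin]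
        decide +kernel
      · have h2 := S1063.result (F := F) hF.symm
        have h3 : Nat.card F ^ 3 ∣ Nat.gcd 3 (Nat.card F - 1) * Nat.card ↥(chevE6.group F) := by
          rw [h2]
          exact Dvd.dvd.mul_right (Dvd.dvd.mul_right (Dvd.dvd.mul_right (Dvd.dvd.mul_right (Dvd.dvd.mul_right
            (Dvd.dvd.mul_right (pow_dvd_pow _ (by norm_num)) _) _) _) _) _) _
        exact h3.trans (Nat.mul_dvd_mul_right (Nat.gcd_dvd_left _ _) _)
    · exact absurd hcc (not_cc_split e6T cs AdjE6.orth hrp (by omega) (dvd_of_od_one hq h1))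
    · exact absurd hcc (not_cc_row e6T cs inv_E6 three_ne_zero AdjE6.hA AdjE6.lt_nroots AdjE6.row2 hrp
        (hn1 (by decide) h1) (dvd2 hrp h1))
    · exact absurd hcc (not_cc_row e6T cs inv_E6 three_ne_zero AdjE6.hA AdjE6.lt_nroots AdjE6.row3 hrp
        (hn1 (by decide) h1) (dvd3 hrp h1))
    · exact absurd hcc (not_cc_row e6T cs inv_E6 three_ne_zero AdjE6.hA AdjE6.lt_nroots AdjE6.row4 hrp
        (hn1 (by decide) h1) (dvd4 hrp h1))
    · exact absurd hcc (not_cc_row e6T cs inv_E6 three_ne_zero AdjE6.hA AdjE6.lt_nroots AdjE6.row5 hrp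
        (hn1 (by decide) h1) (dvd5 hrp h1))
    · exact absurd hcc (not_cc_row e6T cs inv_E6 three_ne_zero AdjE6.hA AdjE6.lt_nroots AdjE6.row6 hrp
        (hn1 (by decide) h1) (dvd6 hrp h1))
    · exact Or.inl h1
    · exact Or.inr (Or.inl h1)
    · exact Or.inr (Or.inr h1)
  refine (card_of (od (Nat.card F)) {8, 9, 12} (fun r hr => ?_) (fun r hr s hs hrs hne => ?_) h).trans (by decide)
  · rcases key r hr with h1 | h1 | h1 <;> rw [h1] <;> decide
  · have hrp := h.prime r hr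
    have hsp := h.prime s hs
    have hr11 := h.ge r hr
    have hs11 := h.ge s hs
    rcases key r hr with h1 | h1 | h1
    · exact adj_tor e6T cs inv_E6 three_ne_zero AdjE6.hA AdjE6.chain8 AdjE6.tor8_8 hrp hsp (by omega) (by omega) hne
        (dvd8 hrp h1) (dvd8 hsp (hrs.symm.trans h1))
    · exact adj_tor e6T cs inv_E6 three_ne_zero AdjE6.hA AdjE6.chain9 AdjE6.tor9_9 hrp hsp (by omega) (by omega) hne
        (dvd9 hrp h1) (dvd9 hsp (hrs.symm.trans h1))
    · exact adj_tor e6T cs inv_E6 three_ne_zero AdjE6.hA AdjE6.chain12 AdjE6.tor12_12 hrp hsp (by omega) (by omega) hne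
        (dvd12 hrp h1) (dvd12 hsp (hrs.symm.trans h1))

end E6

end Cfsg.Agent.H83.ExcUntw
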